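import Mathlib

/-!
# Generic subgroups of linear groups

A finite group acting linearly has a subgroup `H` of bounded index such that a subspace containing
a fixed proportion of an `H`-orbit contains the whole orbit. Consequently polynomial functions of
bounded degree that vanish on a fixed proportion of `H` vanish on `H`.
-/

set_option autoImplicit false

namespace LG

open Module
open scoped Pointwise

universe u v w

theorem sum_card_filter_mul_mem {G : Type*} [Group G] [Fintype G] [DecidableEq G] (T : Finset G) :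
    ∑ h : G, (T.filter fun t => h⁻¹ * t ∈ T).card = T.card * T.card := by
  simp only [Finset.card_filter]
  rw [Finset.sum_comm, Finset.sum_congr rfl fun t _ => ?_, Finset.sum_const, smul_eq_mul]
  rw [← Finset.card_filter]
  refine Finset.card_bij (fun h _ => h⁻¹ * t) (fun h hh => (Finset.mem_filter.1 hh).2)
    (fun a _ b _ h => inv_injective (mul_right_cancel h)) fun b hb => ⟨t * b⁻¹, by simpa, by simp⟩

/-- A dense set meets some translate by an element outside a subgroup of large index densely. -/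
theorem exists_not_mem_card_filter {G : Type*} [Group G] [Fintype G] [DecidableEq G]
    (T : Finset G) {q : ℕ} (hT : Fintype.card G ≤ q * T.card) (S : Subgroup G)
    (hS : 2 * q < S.index) :
    ∃ h ∉ S, Fintype.card G ≤ 2 * q ^ 2 * (T.filter fun t => h⁻¹ * t ∈ T).card := by
  classical
  by_contra hc
  push Not at hc
  have h1 := sum_card_filter_mul_mem T
  rw [← Finset.sum_filter_add_sum_filter_not Finset.univ (· ∈ S)] at h1
  have h2 : ∑ h ∈ Finset.univ.filter (· ∈ S), (T.filter fun t => h⁻¹ * t ∈ T).card ≤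
      Nat.card S * T.card := by
    refine (Finset.sum_le_card_nsmul _ _ T.card fun h _ => Finset.card_filter_le _ _).trans ?_
    rw [smul_eq_mul, Nat.card_eq_fintype_card, Fintype.card_subtype]
  have h3 : 2 * q ^ 2 * ∑ h ∈ Finset.univ.filter (· ∉ S), (T.filter fun t => h⁻¹ * t ∈ T).card ≤
      Fintype.card G * Fintype.card G := by
    rw [Finset.mul_sum]
    refine (Finset.sum_le_card_nsmul _ _ (Fintype.card G) fun h hh =>
      (hc h (Finset.mem_filter.1 hh).2).le).trans ?_
    exact Nat.mul_le_mul_right _ (Finset.card_le_univ _)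
  have h4 := S.card_mul_index
  rw [Nat.card_eq_fintype_card (α := G)] at h4
  have h5 : 0 < Nat.card S := Nat.card_pos
  have h6 : 2 * q * Nat.card S < Fintype.card G := by
    rw [← h4, mul_comm]
    exact Nat.mul_lt_mul_of_pos_left hS h5
  have h7 : 2 * Nat.card S < T.card := by
    refine Nat.lt_of_mul_lt_mul_left (a := q) ?_
    nlinarith
  have h8 : Fintype.card G * Fintype.card G ≤ q ^ 2 * (T.card * T.card) := by
    have := Nat.mul_le_mul hT hT
    nlinarith
  have h9 : 0 < q := by
    rcases Nat.eq_zero_or_pos q with rfl | h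
    · have := Fintype.card_pos (α := G)
      omega
    · exact h
  generalize ∑ h ∈ Finset.univ.filter (· ∈ S), (T.filter fun t => h⁻¹ * t ∈ T).card = a at *
  generalize ∑ h ∈ Finset.univ.filter (· ∉ S), (T.filter fun t => h⁻¹ * t ∈ T).card = b at *
  have h10 : 2 * b ≤ T.card * T.card := by
    refine Nat.le_of_mul_le_mul_left (c := q ^ 2) ?_ (pow_pos h9 2)
    nlinarith
  nlinarith

/-- The span of the orbit of `v` under `S`. -/
def orbSpan {G K W : Type*} [Group G] [Field K] [AddCommGroup W] [Module K W]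
    (ρ : Representation K G W) (v : W) (S : Subgroup G) : Submodule K W :=
  Submodule.span K ((fun s => ρ s v) '' S)

theorem exists_index_le_finrank_orbSpan_le (d : ℕ) : ∀ q : ℕ, ∃ c : ℕ,
    ∀ (G : Type u) [Group G] [Finite G] (K : Type v) [Field K] (W : Type w) [AddCommGroup W]
      [Module K W] [FiniteDimensional K W] (ρ : Representation K G W) (v : W)
      (U : Submodule K W), finrank K U ≤ d → Nat.card G ≤ q * Nat.card {g // ρ g v ∈ U} →
      ∃ S : Subgroup G, S.index ≤ c ∧ finrank K (orbSpan ρ v S) ≤ finrank K U := by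
  have key : ∀ (G : Type u) [Group G] [Finite G] (K : Type v) [Field K] (W : Type w)
      [AddCommGroup W] [Module K W] [FiniteDimensional K W] (ρ : Representation K G W) (v : W)
      (U : Submodule K W) (q : ℕ), Nat.card G ≤ q * Nat.card {g // ρ g v ∈ U} →
      ∀ S : Subgroup G, (∀ s ∈ S, ∀ x ∈ U, ρ s x ∈ U) →
      ∃ S' : Subgroup G, S'.index = S.index ∧ finrank K (orbSpan ρ v S') ≤ finrank K U := by
    intro G _ _ K _ W _ _ _ ρ v U q hq S hS
    have h0 : Nat.card {g // ρ g v ∈ U} ≠ 0 := fun h => by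
      rw [h, mul_zero] at hq
      exact Nat.card_pos.not_ge hq
    obtain ⟨t, ht⟩ := (Nat.card_ne_zero.1 h0).1
    refine ⟨S.comap (MulAut.conj t).toMonoidHom,
      S.index_comap_of_surjective (MulAut.conj t).surjective, ?_⟩
    refine le_trans (Submodule.finrank_mono (t := U.map (ρ t⁻¹)) (Submodule.span_le.2 ?_))
      (Submodule.finrank_map_le _ _)
    rintro _ ⟨s, hs, rfl⟩
    refine ⟨_, hS _ hs _ ht, ?_⟩
    simp [← Module.End.mul_apply, ← map_mul]
  induction d with
  | zero =>
    refine fun q => ⟨1, fun G _ _ K _ W _ _ _ ρ v U hU hq => ?_⟩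
    obtain ⟨S, h1, h2⟩ := key G K W ρ v U q hq ⊤ fun s _ x hx => by
      rw [Nat.le_zero, Submodule.finrank_eq_zero] at hU
      rw [hU, Submodule.mem_bot] at hx ⊢
      rw [hx, map_zero]
    exact ⟨S, by rw [h1, Subgroup.index_top], h2⟩
  | succ d ih =>
    intro q
    obtain ⟨c, hc⟩ := ih (2 * q ^ 2)
    refine ⟨max (2 * q) c, fun G _ _ K _ W _ _ _ ρ v U hU hq => ?_⟩
    classical
    have := Fintype.ofFinite G
    let S : Subgroup G :=
      { carrier := {s | ∀ x, x ∈ U ↔ ρ s x ∈ U}
        mul_mem' := fun {a b} ha hb x => by rw [map_mul, Module.End.mul_apply, ← ha, ← hb]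
        one_mem' := fun x => by simp
        inv_mem' := fun {a} ha x => by
          rw [ha (ρ a⁻¹ x), ← Module.End.mul_apply, ← map_mul]
          simp }
    rcases le_or_gt S.index (2 * q) with h | h
    · obtain ⟨S', h1, h2⟩ := key G K W ρ v U q hq S fun s hs x hx => (hs x).1 hx
      exact ⟨S', h1 ▸ h.trans (le_max_left _ _), h2⟩
    rw [Nat.card_eq_fintype_card, Nat.card_eq_fintype_card, Fintype.card_subtype] at hq
    obtain ⟨g, hg, hg'⟩ := exists_not_mem_card_filter _ hq S h
    have hlt : U ⊓ U.comap (ρ g⁻¹) < U := by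
      refine lt_of_le_of_ne inf_le_left fun he => hg (S.inv_mem_iff.1 ?_)
      have h1 : U.map (ρ g⁻¹) ≤ U := Submodule.map_le_iff_le_comap.2 (inf_eq_left.1 he)
      have hinj : Function.Injective (ρ g⁻¹) := fun a b hab => by
        simpa [← Module.End.mul_apply, ← map_mul] using congrArg (ρ g) hab
      have h2 : U.map (ρ g⁻¹) = U := Submodule.eq_of_le_of_finrank_eq h1
        (LinearEquiv.finrank_eq (Submodule.equivMapOfInjective _ hinj U)).symm
      refine fun x => ⟨fun hx => h1 ⟨x, hx, rfl⟩, fun hx => ?_⟩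
      rw [← h2] at hx
      obtain ⟨y, hy, hxy⟩ := hx
      exact hinj hxy ▸ hy
    have h1 := Submodule.finrank_lt_finrank_of_lt hlt
    obtain ⟨S', h2, h3⟩ := hc G K W ρ v (U ⊓ U.comap (ρ g⁻¹)) (by omega) (by
      rw [Nat.card_eq_fintype_card, Nat.card_eq_fintype_card, Fintype.card_subtype]
      refine hg'.trans_eq ?_
      congr 2
      ext x
      simp)
    exact ⟨S', h2.trans (le_max_right _ _), h3.trans h1.le⟩

theorem exists_generic_orbit (d q : ℕ) : ∃ N : ℕ,
    ∀ (G : Type u) [Group G] [Finite G] (K : Type v) [Field K] (W : Type w) [AddCommGroup W]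
      [Module K W] [FiniteDimensional K W] (ρ : Representation K G W) (v : W),
      finrank K (orbSpan ρ v ⊤) ≤ d → ∃ H : Subgroup G, H.index ≤ N ∧ ∀ U : Submodule K W,
        Nat.card H ≤ q * Nat.card {h : H // ρ h v ∈ U} → ∀ h ∈ H, ρ h v ∈ U := by
  induction d with
  | zero =>
    refine ⟨1, fun G _ _ K _ W _ _ _ ρ v hd => ⟨⊤, by simp, fun U _ h _ => ?_⟩⟩
    rw [Nat.le_zero, Submodule.finrank_eq_zero] at hd
    have : ρ h v ∈ orbSpan ρ v ⊤ := Submodule.subset_span ⟨h, trivial, rfl⟩
    rw [hd, Submodule.mem_bot] at this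
    rw [this]
    exact U.zero_mem
  | succ d ih =>
    obtain ⟨N, hN⟩ := ih
    obtain ⟨c, hc⟩ := exists_index_le_finrank_orbSpan_le.{u, v, w} d q
    refine ⟨N * c + 1, fun G _ _ K _ W _ _ _ ρ v hd => ?_⟩
    by_cases h : ∀ U : Submodule K W, Nat.card (⊤ : Subgroup G) ≤
        q * Nat.card {h : (⊤ : Subgroup G) // ρ h v ∈ U} → ∀ h ∈ (⊤ : Subgroup G), ρ h v ∈ U
    · exact ⟨⊤, by simp, h⟩
    push Not at h
    obtain ⟨U, hU, g, -, hg⟩ := h
    have hmem : ∀ x : G, ρ x v ∈ orbSpan ρ v ⊤ := fun x => Submodule.subset_span ⟨x, trivial, rfl⟩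
    have hlt : U ⊓ orbSpan ρ v ⊤ < orbSpan ρ v ⊤ :=
      lt_of_le_of_ne inf_le_right fun he => hg (inf_eq_right.1 he (hmem g))
    have h1 := Submodule.finrank_lt_finrank_of_lt hlt
    obtain ⟨S, hS, h2⟩ := hc G K W ρ v (U ⊓ orbSpan ρ v ⊤) (by omega) (by
      rw [Subgroup.card_top] at hU
      refine hU.trans_eq (congrArg _ (Nat.card_congr
        (Subgroup.topEquiv.toEquiv.subtypeEquiv fun x => ?_)))
      simp [hmem])
    obtain ⟨H, hH, h3⟩ := hN S K W (ρ.comp S.subtype) v (by
      have : orbSpan (ρ.comp S.subtype) v ⊤ = orbSpan ρ v S := by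
        unfold orbSpan
        congr 1
        ext
        simp
      rw [this]
      omega)
    refine ⟨H.map S.subtype, ?_, fun U' hU' => ?_⟩
    · rw [Subgroup.index_map_subtype]
      exact (Nat.mul_le_mul hH hS).trans (Nat.le_succ _)
    · rintro _ ⟨h, hh, rfl⟩
      refine h3 U' ?_ h hh
      let e := H.equivMapOfInjective S.subtype S.subtype_injective
      rw [Nat.card_congr e.toEquiv]
      exact hU'.trans_eq (congrArg _ (Nat.card_congr (e.toEquiv.subtypeEquiv fun x => Iff.rfl)).symm)

/-- Generic subgroups for a translation invariant space of functions. -/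
theorem exists_generic_fun (d q : ℕ) : ∃ N : ℕ,
    ∀ (G : Type u) [Group G] [Finite G] (K : Type v) [Field K] (P : Submodule K (G → K)),
      (∀ g, ∀ f ∈ P, (fun x => f (g * x)) ∈ P) → finrank K P ≤ d →
      ∃ H : Subgroup G, H.index ≤ N ∧ ∀ f ∈ P,
        Nat.card H ≤ q * Nat.card {h : H // f h = 0} → ∀ h ∈ H, f h = 0 := by
  obtain ⟨N, hN⟩ := exists_generic_orbit.{u, v, max u v} d q
  refine ⟨N, fun G _ _ K _ P hP hd => ?_⟩
  let L : G → P →ₗ[K] P := fun g => (LinearMap.funLeft K K (g * ·)).restrict (hP g)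
  let ρ : Representation K G (Dual K P) :=
    { toFun := fun g => (L g).dualMap
      map_one' := by
        ext l f
        simp only [LinearMap.dualMap_apply, Module.End.one_apply]
        exact congrArg l (Subtype.ext (funext fun x => by simp [L]))
      map_mul' := fun a b => by
        ext l f
        simp only [LinearMap.dualMap_apply, Module.End.mul_apply]
        exact congrArg l (Subtype.ext (funext fun x => congrArg f.1 (mul_assoc a b x))) }
  obtain ⟨H, hH, h⟩ := hN G K (Dual K P) ρ ((LinearMap.proj 1).comp P.subtype)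
    ((Submodule.finrank_le _).trans (Subspace.dual_finrank_eq.trans_le hd))
  refine ⟨H, hH, fun f hf h1 x hx => ?_⟩
  have h2 : ∀ x : G, ρ x ((LinearMap.proj 1).comp P.subtype) ∈
      LinearMap.ker (Dual.eval K P ⟨f, hf⟩) ↔ f x = 0 := fun x => by
    change f (x * 1) = 0 ↔ _
    rw [mul_one]
  exact (h2 x).1 (h _ (by simpa only [h2] using h1) x hx)

end LG
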