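import Cfsg.Agent.Lib.Lin.Generic
import Cfsg.Agent.Lib.Grp.PPart
import Cfsg.Agent.Lib.Char.BrauerApp

/-!
# Linear groups in characteristic `p` have a `p'`-subgroup of bounded index

The bound depends on the degree and on the order of a Sylow `p`-subgroup only.
-/

set_option autoImplicit false

namespace LG

open Module Cfsg GT
open scoped Pointwise

universe u v

theorem exists_mul_mul_eq_one_rank {K ι : Type*} [Field K] [Fintype ι] [DecidableEq ι]
    (A : Matrix ι ι K) : ∃ (B : Matrix (Fin A.rank) ι K) (C : Matrix ι (Fin A.rank) K),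
      B * A * C = 1 := by
  obtain ⟨V, U, e, -, -, h⟩ := Matrix.exists_rank_normal_form A
  refine ⟨V.submatrix (fun i => e.symm (Sum.inl i)) id,
    U.submatrix id (fun i => e.symm (Sum.inl i)), ?_⟩
  ext i j
  have := congrFun (congrFun h (e.symm (Sum.inl i))) (e.symm (Sum.inl j))
  simpa [Matrix.mul_apply] using this

theorem mul_apply_mem_pow {K A l m n : Type*} [CommRing K] [CommRing A] [Algebra K A] [Fintype m]
    {Q : Submodule K A} {a b : ℕ} {X : Matrix l m A} {Y : Matrix m n A}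
    (hX : ∀ i j, X i j ∈ Q ^ a) (hY : ∀ i j, Y i j ∈ Q ^ b) (i : l) (j : n) :
    (X * Y) i j ∈ Q ^ (a + b) := by
  rw [Matrix.mul_apply, pow_add]
  exact Submodule.sum_mem _ fun k _ => Submodule.mul_mem_mul (hX i k) (hY k j)

theorem det_mem_pow {K A n : Type*} [CommRing K] [CommRing A] [Algebra K A] [Fintype n]
    [DecidableEq n] {Q : Submodule K A} {X : Matrix n n A} (hX : ∀ i j, X i j ∈ Q) :
    X.det ∈ Q ^ Fintype.card n := by
  have h : ∀ (f : n → A) (s : Finset n), (∀ i, f i ∈ Q) → ∏ i ∈ s, f i ∈ Q ^ s.card := by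
    intro f s hf
    induction s using Finset.induction_on with
    | empty => simpa using Submodule.one_le.1 (le_refl (1 : Submodule K A))
    | insert a s ha ih =>
      rw [Finset.prod_insert ha, Finset.card_insert_of_notMem ha, pow_succ']
      exact Submodule.mul_mem_mul (hf a) ih
  rw [Matrix.det_apply]
  refine Submodule.sum_mem _ fun σ _ => ?_
  rw [Units.smul_def]
  exact zsmul_mem (h _ _ fun i => hX _ _) _

theorem exists_generic_rank (m q : ℕ) : ∃ N : ℕ,
    ∀ (G : Type u) [Group G] [Finite G] (K : Type v) [Field K]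
      (T : G →* Matrix (Fin m) (Fin m) K), ∃ H : Subgroup G, H.index ≤ N ∧
      ∀ a ≤ 2, ∀ g ∈ H, ∀ R : G → Prop, Nat.card H ≤ q * Nat.card {h : H // R h} →
        ∃ h ∈ H, R h ∧ ((T g - 1) ^ a).rank ≤ ((T h - 1) ^ a).rank := by
  obtain ⟨N, hN⟩ := exists_generic_fun.{u, v} ((m * m + 1) ^ (2 * m)) q
  refine ⟨N, fun G _ _ K _ T => ?_⟩
  classical
  let s : Finset (G → K) :=
    insert 1 (Finset.univ.image fun ij : Fin m × Fin m => fun g => T g ij.1 ij.2)
  let Q : Submodule K (G → K) := Submodule.span K s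
  have h1 : (1 : G → K) ∈ Q := Submodule.subset_span (by simp [s])
  have h2 : ∀ i j, (fun g => T g i j) ∈ Q := fun i j =>
    Submodule.subset_span (by simp [s])
  have hmono : ∀ a b, a ≤ b → Q ^ a ≤ Q ^ b := fun a b hab =>
    pow_le_pow_right' (Submodule.one_le.2 h1) hab
  obtain ⟨H, hH, h⟩ := hN G K (Q ^ (2 * m)) (fun g f hf => by
    let L : (G → K) →ₐ[K] (G → K) :=
      AlgHom.ofLinearMap (LinearMap.funLeft K K (g * ·)) rfl fun _ _ => rfl
    have h3 : Q.map L.toLinearMap ≤ Q := by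
      rw [Submodule.map_span_le]
      intro x hx
      simp only [s, Finset.coe_insert, Finset.coe_image, Set.mem_insert_iff, Set.mem_image] at hx
      rcases hx with rfl | ⟨⟨i, j⟩, -, rfl⟩
      · exact h1
      · have : L.toLinearMap (fun x => T x i j) = ∑ k, T g i k • fun x => T x k j := by
          funext x
          change T (g * x) i j = _
          simp [Matrix.mul_apply]
        rw [this]
        exact Q.sum_mem fun k _ => Q.smul_mem _ (h2 k j)
    have h4 := Submodule.mem_map_of_mem (f := L.toLinearMap) hf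
    rw [Submodule.map_pow] at h4
    exact pow_le_pow_left' h3 _ h4) (by
    rw [Submodule.span_pow, ← Finset.coe_pow]
    refine (finrank_span_finset_le_card _).trans (Finset.card_pow_le.trans
      (Nat.pow_le_pow_left ((Finset.card_insert_le _ _).trans ?_) _))
    simpa using Finset.card_image_le (s := (Finset.univ : Finset (Fin m × Fin m))))
  refine ⟨H, hH, fun a ha g hg R hR => ?_⟩
  obtain ⟨B, C, hBC⟩ := exists_mul_mul_eq_one_rank ((T g - 1) ^ a)
  let 𝒯 : Matrix (Fin m) (Fin m) (G → K) := Matrix.of fun i j x => T x i j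
  let 𝒜 := B.map (algebraMap K (G → K)) * (𝒯 - 1) ^ a * C.map (algebraMap K (G → K))
  have h0 : ∀ c : K, algebraMap K (G → K) c ∈ Q ^ 0 := fun c => by
    rw [pow_zero]
    exact Submodule.algebraMap_mem c
  have h3 : ∀ (b : ℕ) i j, ((𝒯 - 1) ^ b) i j ∈ Q ^ b := fun b => by
    induction b with
    | zero =>
      intro i j
      rw [pow_zero (𝒯 - 1), Matrix.one_apply]
      split_ifs
      exacts [by simp, Submodule.zero_mem _]
    | succ b ih =>
      rw [pow_succ (𝒯 - 1)]
      refine mul_apply_mem_pow ih fun i j => ?_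
      rw [pow_one, Matrix.sub_apply, Matrix.one_apply]
      refine Q.sub_mem (h2 i j) ?_
      split_ifs
      exacts [h1, Q.zero_mem]
  have h4 : 𝒜.det ∈ Q ^ (2 * m) := by
    have := det_mem_pow (mul_apply_mem_pow (mul_apply_mem_pow (X := B.map (algebraMap K (G → K)))
      (fun i j => h0 _) (h3 a)) (Y := C.map (algebraMap K (G → K))) fun i j => h0 _)
    rw [← pow_mul] at this
    refine hmono _ _ ?_ this
    rw [zero_add, add_zero, Fintype.card_fin]
    exact Nat.mul_le_mul ha (Matrix.rank_le_width _)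
  have h5 : ∀ x, 𝒜.det x = (B * (T x - 1) ^ a * C).det := fun x => by
    refine ((Pi.evalRingHom (fun _ => K) x).map_det 𝒜).trans (congrArg _ ?_)
    have h6 : (𝒯 - 1).map (Pi.evalRingHom (fun _ => K) x) = T x - 1 := by
      ext i j
      by_cases hij : i = j <;> simp [𝒯, Matrix.one_apply, hij]
    rw [RingHom.mapMatrix_apply, Matrix.map_mul, Matrix.map_mul, ← h6, Matrix.map_pow]
    rfl
  by_contra hc
  push Not at hc
  have h6 := h _ h4 (hR.trans (Nat.mul_le_mul_left _ (Nat.card_le_card_of_injective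
    (Subtype.impEmbedding _ _ fun x hx => ?_) (Function.Embedding.injective _)))) g hg
  · rw [h5, hBC, Matrix.det_one] at h6
    exact one_ne_zero h6
  · by_contra h7
    have h8 := Matrix.rank_of_det_ne_zero (h5 x ▸ h7)
    rw [Fintype.card_fin] at h8
    exact (hc x x.2 hx).not_ge (h8.ge.trans ((Matrix.rank_mul_le_left _ _).trans
      (Matrix.rank_mul_le_right _ _)))

section Ker

variable {K W : Type*} [Field K] [AddCommGroup W] [Module K W]

theorem ker_sub_one_sq_eq {A : End K W} {o : ℕ} (ho : (o : K) ≠ 0) (hA : A ^ o = 1) :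
    LinearMap.ker ((A - 1) ^ 2) = LinearMap.ker (A - 1) := by
  refine le_antisymm (fun x hx => ?_) (by
    rw [sq]
    exact LinearMap.ker_le_ker_comp _ _)
  rw [LinearMap.mem_ker, sq, Module.End.mul_apply, LinearMap.sub_apply, Module.End.one_apply,
    sub_eq_zero] at hx
  have h1 : ∀ i : ℕ, (A ^ i) ((A - 1) x) = (A - 1) x := fun i => by
    induction i with
    | zero => rfl
    | succ i ih => rw [pow_succ, Module.End.mul_apply, hx, ih]
  have h2 := congrArg (· x) (geom_sum_mul A o)
  simp only [hA, sub_self, Module.End.mul_apply, LinearMap.sum_apply, h1, Finset.sum_const,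
    Finset.card_range, LinearMap.zero_apply] at h2
  rw [← Nat.cast_smul_eq_nsmul K, smul_eq_zero] at h2
  exact h2.resolve_left ho

theorem exists_mul_mul_eq_self (N : End K W) : ∃ Y : End K W, N * Y * N = N := by
  obtain ⟨g, hg⟩ := N.rangeRestrict.exists_rightInverse_of_surjective N.range_rangeRestrict
  obtain ⟨π, hπ⟩ := (LinearMap.range N).subtype.exists_leftInverse_of_injective
    (Submodule.ker_subtype _)
  refine ⟨g ∘ₗ π, LinearMap.ext fun x => ?_⟩
  have h1 : π (N x) = N.rangeRestrict x := congrArg (· (N.rangeRestrict x)) hπ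
  have h2 := congrArg (fun f => (f (N.rangeRestrict x)).1) hg
  simp only [Module.End.mul_apply, LinearMap.comp_apply, h1]
  exact h2

variable {p : ℕ} [Fact p.Prime] [CharP K p] {G : Type*} [Group G] [Finite G]

theorem ker_linHom_sub_one_sq_ne (ρ : Representation K G W) (hρ : Function.Injective ρ) {g : G}
    (hg : p ∣ orderOf g) :
    LinearMap.ker ((ρ.linHom ρ g - 1) ^ 2) ≠ LinearMap.ker (ρ.linHom ρ g - 1) := by
  intro h
  have hinv : ∀ x : G, ρ x⁻¹ * ρ x = 1 := fun x => by rw [← map_mul, inv_mul_cancel, map_one]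
  have hmem : ∀ (x : G) (X : End K W), X ∈ LinearMap.ker (ρ.linHom ρ x - 1) ↔
      Commute (ρ x) X := fun x X => by
    rw [LinearMap.mem_ker, LinearMap.sub_apply, Module.End.one_apply, sub_eq_zero]
    change ρ x * (X * ρ x⁻¹) = X ↔ ρ x * X = X * ρ x
    refine ⟨fun h1 => ?_, fun h1 => ?_⟩
    · conv_rhs => rw [← h1]
      rw [mul_assoc, mul_assoc, hinv, mul_one]
    · rw [← mul_assoc, h1, mul_assoc, ← map_mul, mul_inv_cancel, map_one, mul_one]
  set u := pPart p g
  set s := pRegPart p g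
  have hus : Commute u s := commute_pPart_pRegPart p g
  obtain ⟨a, ha⟩ := (isPElt_pPart p g).exists_pow_eq_one
  have hN : ρ u - 1 ≠ 0 := fun h0 => by
    have h1 : u = 1 := hρ ((sub_eq_zero.1 h0).trans (map_one ρ).symm)
    have h2 := isPRegular_pRegPart p g
    rw [pRegPart_eq_inv_mul, show pPart p g = 1 from h1, inv_one, one_mul] at h2
    exact h2 hg
  haveI : Nontrivial (End K W) := nontrivial_of_ne _ _ hN
  haveI : CharP (End K W) p := charP_of_injective_algebraMap (algebraMap K _).injective p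
  haveI : CharP (End K (End K W)) p := charP_of_injective_algebraMap (algebraMap K _).injective p
  have hcomm : ∀ X : End K W, Commute (ρ s) X → Commute (ρ u) X := fun X hX => by
    have h1 : Commute (ρ (g ^ p ^ a)) X := by
      rw [← pPart_mul_pRegPart p g, hus.mul_pow, ha, one_mul, map_pow]
      exact hX.pow_left _
    have h2 := Module.End.ker_pow_constant (f := ρ.linHom ρ g - 1) (k := 1)
      (by rw [pow_one]; exact h.symm) (p ^ a - 1)
    rw [pow_one, Nat.add_sub_cancel' (Nat.one_le_pow _ _ (Fact.out : p.Prime).pos)] at h2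
    have h3 := sub_pow_char_pow_of_commute (R := End K (End K W)) p a
      (Commute.one_right (ρ.linHom ρ g))
    rw [← hmem, map_pow] at h1
    rw [one_pow] at h3
    have h4 : Commute (ρ g) X := (hmem g X).1 (h2 ▸ h3 ▸ h1)
    have h5 : Commute (ρ s⁻¹) X := by
      rw [← hmem] at hX ⊢
      rw [LinearMap.mem_ker, LinearMap.sub_apply, Module.End.one_apply, sub_eq_zero] at hX ⊢
      conv_lhs => rw [← hX]
      rw [← Module.End.mul_apply, ← map_mul, inv_mul_cancel, map_one, Module.End.one_apply]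
    rw [show u = g * s⁻¹ from pPart_eq_mul_inv p g, map_mul]
    exact h4.mul_left h5
  obtain ⟨Y, hY⟩ := exists_mul_mul_eq_self (ρ u - 1)
  have := Fintype.ofFinite (Subgroup.zpowers s)
  let X : End K W := ∑ c : Subgroup.zpowers s, ρ c * Y * ρ c⁻¹
  have hX : Commute (ρ u - 1) X := by
    refine (hcomm X ?_).sub_left (Commute.one_left X)
    rw [Commute, SemiconjBy, Finset.mul_sum, Finset.sum_mul]
    refine Fintype.sum_equiv (Equiv.mulLeft ⟨s, Subgroup.mem_zpowers s⟩) _ _ fun c => ?_
    simp only [Equiv.coe_mulLeft, Subgroup.coe_mul, mul_inv_rev, map_mul, mul_assoc,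
      Subgroup.coe_inv, hinv, mul_one]
  have hc : ∀ c ∈ Subgroup.zpowers s, Commute (ρ u - 1) (ρ c) := fun c hc =>
    ((commute_of_mem_zpowers hc hus.symm).symm.map ρ).sub_left (Commute.one_left _)
  have h1 : (ρ u - 1) * X * (ρ u - 1) = (orderOf s : K) • (ρ u - 1) := by
    rw [Finset.mul_sum, Finset.sum_mul, Finset.sum_congr rfl fun c _ => ?_, Finset.sum_const,
      Finset.card_univ, ← Nat.card_eq_fintype_card, Nat.card_zpowers, Nat.cast_smul_eq_nsmul]
    calc (ρ u - 1) * (ρ c * Y * ρ c⁻¹) * (ρ u - 1)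
        = ρ c * ((ρ u - 1) * Y * (ρ u - 1)) * ρ c⁻¹ := by
          rw [← mul_assoc, ← mul_assoc, (hc c c.2).eq, mul_assoc _ (ρ _) (ρ u - 1),
            ← (hc _ (inv_mem c.2)).eq]
          simp only [mul_assoc]
      _ = ρ u - 1 := by
          rw [hY, ← (hc c c.2).eq, mul_assoc, ← map_mul]
          simp
  have h2 : IsNilpotent (X * (ρ u - 1)) := by
    refine hX.symm.isNilpotent_mul_left ⟨p ^ a, ?_⟩
    rw [sub_pow_char_pow_of_commute p a (Commute.one_right _), ← map_pow, ha, map_one, one_pow,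
      sub_self]
  have ho : (orderOf s : K) ≠ 0 := fun h0 =>
    isPRegular_pRegPart p g ((CharP.cast_eq_zero_iff K p _).1 h0)
  obtain ⟨j, hj⟩ := h2
  have h3 : ∀ i : ℕ, (ρ u - 1) * (X * (ρ u - 1)) ^ i = (orderOf s : K) ^ i • (ρ u - 1) := by
    intro i
    induction i with
    | zero => simp
    | succ i ih => rw [pow_succ, ← mul_assoc, ih, smul_mul_assoc, ← mul_assoc, h1, smul_smul,
        pow_succ]
  have h4 := h3 j
  rw [hj, mul_zero, eq_comm, smul_eq_zero] at h4
  exact h4.elim (pow_ne_zero j ho) hN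

end Ker

theorem card_le_pow_mul_card_regular {p : ℕ} [hp : Fact p.Prime] {G : Type*} [Group G] [Finite G]
    {m : ℕ} (hm : (Nat.card G).factorization p ≤ m) :
    Nat.card G ≤ p ^ m * Nat.card {g : G // ¬ p ∣ orderOf g} ∧ (p ∣ Nat.card G →
      Nat.card G ≤ p ^ m * Nat.card {g : G // p ∣ orderOf g}) := by
  classical
  have h0 : Nat.card G ≠ 0 := Nat.card_pos.ne'
  have h1 : ordCompl[p] (Nat.card G) ∣ Nat.card {g : G // ¬ p ∣ orderOf g} := by
    have := Fintype.ofFinite G
    obtain ⟨z, hz⟩ := (CT.isGen_pRegularPart hp.out (G := G)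
      CT.isCharacter_one.isGen).exists_int_ip CT.isCharacter_one.isGen
    rw [CT.ip_def, inv_mul_eq_iff_eq_mul₀ CT.card_cast_ne_zero] at hz
    simp only [Pi.smul_apply, CT.pRegularPart_apply, Pi.one_apply, map_one, mul_one, smul_eq_mul,
      ← Finset.mul_sum] at hz
    rw [Finset.sum_ite, Finset.sum_const_zero, zero_add, Finset.sum_const, nsmul_one,
      ← Fintype.card_subtype, ← Nat.card_eq_fintype_card] at hz
    conv_rhs at hz => rw [← Nat.ordProj_mul_ordCompl_eq_self (Nat.card G) p, Nat.cast_mul, mul_assoc]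
    have h2 := mul_left_cancel₀ (Nat.cast_ne_zero.2 (pow_pos hp.out.pos _).ne') hz
    refine Int.natCast_dvd_natCast.1 ⟨z, Int.cast_injective (α := ℂ) ?_⟩
    rw [Int.cast_mul, Int.cast_natCast, Int.cast_natCast]
    exact h2
  have h3 : ∀ k, k ≠ 0 → ordCompl[p] (Nat.card G) ∣ k → Nat.card G ≤ p ^ m * k := fun k hk h => by
    conv_lhs => rw [← Nat.ordProj_mul_ordCompl_eq_self (Nat.card G) p]
    exact Nat.mul_le_mul (Nat.pow_le_pow_right hp.out.pos hm) (Nat.le_of_dvd hk.bot_lt h)
  refine ⟨h3 _ (Nat.card_ne_zero.2 ⟨⟨1, isPRegular_one⟩, inferInstance⟩) h1, fun h => ?_⟩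
  obtain ⟨x, hx⟩ := exists_prime_orderOf_dvd_card' p h
  refine h3 _ (Nat.card_ne_zero.2 ⟨⟨x, dvd_of_eq hx.symm⟩, inferInstance⟩) ?_
  have h4 : Nat.card {g : G // p ∣ orderOf g} + Nat.card {g : G // ¬ p ∣ orderOf g} =
      Nat.card G := by
    rw [← Nat.card_sum]
    exact Nat.card_congr (Equiv.sumCompl _)
  exact (Nat.dvd_add_left h1).1 (h4 ▸ Nat.ordCompl_dvd (Nat.card G) p)

/-- A linear group in characteristic `p` has a `p'`-subgroup whose index is bounded in terms of
the degree and the order of the Sylow `p`-subgroups. -/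
theorem exists_index_le_not_dvd_card (p : ℕ) [hp : Fact p.Prime] (m n : ℕ) : ∃ N : ℕ,
    ∀ (G : Type u) [Group G] [Finite G] (F : Type v) [Field F] [CharP F p]
      (ρ : Representation F G (Fin n → F)), Function.Injective ρ →
      (Nat.card G).factorization p ≤ m → ∃ H : Subgroup G, H.index ≤ N ∧ ¬ p ∣ Nat.card H := by
  obtain ⟨N, hN⟩ := exists_generic_rank.{u, v} (n * n) (p ^ m)
  refine ⟨N, fun G _ _ F _ _ ρ hρ hm => ?_⟩
  let b : Basis (Fin (n * n)) F ((Fin n → F) →ₗ[F] (Fin n → F)) :=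
    Module.finBasisOfFinrankEq F _ (by simp [Module.finrank_linearMap])
  let e := LinearMap.toMatrixAlgEquiv b
  obtain ⟨H, hH, h⟩ := hN G F (e.toMulEquiv.toMonoidHom.comp (ρ.linHom ρ))
  refine ⟨H, hH, fun hd => ?_⟩
  let r : ℕ → G → ℕ := fun a g => finrank F (LinearMap.ker ((ρ.linHom ρ g - 1) ^ a))
  have h1 : ∀ a g, ((e (ρ.linHom ρ g) - 1) ^ a).rank + r a g = n * n := fun a g => by
    rw [← map_one e, ← map_sub, ← map_pow, Matrix.rank_eq_finrank_range_toLin _ b b]
    erw [Matrix.toLin_toMatrix]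
    rw [LinearMap.finrank_range_add_finrank_ker]
    simp [Module.finrank_linearMap]
  have h2 : ∀ a ≤ 2, ∀ g ∈ H, ∀ R : G → Prop, Nat.card H ≤ p ^ m * Nat.card {h : H // R h} →
      ∃ h ∈ H, R h ∧ r a h ≤ r a g := fun a ha g hg R hR => by
    obtain ⟨x, hx, hRx, h3⟩ := h a ha g hg R hR
    refine ⟨x, hx, hRx, ?_⟩
    have h4 := h1 a g
    have h5 := h1 a x
    change ((e (ρ.linHom ρ g) - 1) ^ a).rank ≤ ((e (ρ.linHom ρ x) - 1) ^ a).rank at h3
    omega
  obtain ⟨h3, h4⟩ := card_le_pow_mul_card_regular (p := p) (G := H) (m := m)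
    (((Nat.factorization_le_iff_dvd Nat.card_pos.ne' Nat.card_pos.ne').2
      H.card_subgroup_dvd_card p).trans hm)
  simp only [← Subgroup.orderOf_coe] at h3 h4
  obtain ⟨g, hg, hmin⟩ := Set.exists_min_image (H : Set G) (r 1) (Set.toFinite _) ⟨1, H.one_mem⟩
  obtain ⟨x, hx, hx1, hx2⟩ := h2 1 one_le_two g hg (fun x => ¬ p ∣ orderOf x) h3
  obtain ⟨y, hy, hy1, hy2⟩ := h2 2 le_rfl x hx (fun x => p ∣ orderOf x) (h4 hd)
  have h5 : r 2 x = r 1 x := by
    have := ker_sub_one_sq_eq (A := ρ.linHom ρ x) (mt (CharP.cast_eq_zero_iff F p _).1 hx1)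
      (by rw [← map_pow, pow_orderOf_eq_one, map_one])
    rw [← pow_one (ρ.linHom ρ x - 1), ← pow_mul] at this
    exact congrArg (fun U : Submodule F _ => finrank F U) this
  have h6 : r 1 y < r 2 y := by
    refine Submodule.finrank_lt_finrank_of_lt ?_
    rw [pow_one]
    refine lt_of_le_of_ne ?_ (ker_linHom_sub_one_sq_ne ρ hρ hy1).symm
    rw [sq]
    exact LinearMap.ker_le_ker_comp _ _
  have h7 := hmin y hy
  omega

end LG
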