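import Cfsg.Agent.Lib.Lin.HallPi
import Cfsg.Agent.Lib.Char.CliffordCorr

/-!
# The order of a linear `p`-group in terms of degree and character field
-/

set_option autoImplicit false

namespace LG

open Cfsg CT MulAction Subgroup

universe u
variable {G : Type u} [Group G] [Finite G] {p : ℕ} [hp : Fact p.Prime]

omit hp in
theorem index_stabilizer_le_finrank (χ : IrrCharacter G)
    [FiniteDimensional ℚ (IntermediateField.adjoin ℚ (Set.range χ.1))] :
    (stabilizer (ℂ ≃+* ℂ) χ).index ≤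
      Module.finrank ℚ (IntermediateField.adjoin ℚ (Set.range χ.1)) := by
  set K := IntermediateField.adjoin ℚ (Set.range χ.1)
  let F : (K →ₐ[ℚ] ℂ) → G → ℂ := fun φ g =>
    φ ⟨χ.1 g, IntermediateField.subset_adjoin _ _ ⟨g, rfl⟩⟩
  rw [index_stabilizer, ← Set.ncard_image_of_injective _ Subtype.val_injective,
    ← AlgHom.card ℚ K ℂ, ← Nat.card_eq_fintype_card, ← Set.ncard_univ]
  refine (Set.ncard_le_ncard ?_ (Set.toFinite _)).trans (Set.ncard_image_le (f := F))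
  rintro _ ⟨_, ⟨σ, rfl⟩, rfl⟩
  exact ⟨((σ : ℂ →+* ℂ).comp K.val.toRingHom).toRatAlgHom, trivial, rfl⟩

omit hp in
theorem totient_le_index_stabilizer [IsCyclic G] (χ : IrrCharacter G) (hk : ker χ.1 = ⊥) :
    (Nat.card G).totient ≤ (stabilizer (ℂ ≃+* ℂ) χ).index := by
  obtain ⟨f, hf⟩ := χ.2.isCharacter.exists_monoidHom_of_degree_one
    (irr_degree_eq_one_of_isMulCommutative χ)
  obtain ⟨g, hg⟩ := IsCyclic.exists_ofOrder_eq_natCard (α := G)
  have hinj : Function.Injective f := (injective_iff_map_eq_one f).2 fun x hx =>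
    mem_bot.1 (hk ▸ hf ▸ (mem_ker_monoidHom f).2 hx)
  have h1 : IsPrimitiveRoot (f g) (Nat.card G) := by
    rw [← hg, ← orderOf_injective f hinj]; exact IsPrimitiveRoot.orderOf _
  have : NeZero (Nat.card G) := ⟨Nat.card_pos.ne'⟩
  rw [index_stabilizer, ← h1.card_primitiveRoots, ← Set.ncard_coe_finset]
  refine (Set.ncard_le_ncard (fun ξ hξ => ?_) (Set.toFinite _)).trans
    (Set.ncard_image_le (f := fun φ : IrrCharacter G => φ.1 g))
  obtain ⟨i, -, hi, rfl⟩ := h1.isPrimitiveRoot_iff.1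
    ((mem_primitiveRoots Nat.card_pos).1 hξ)
  obtain ⟨σ, hσ⟩ := exists_ringEquiv_pow Nat.card_pos.ne' hi
  exact ⟨σ • χ, ⟨σ, rfl⟩, by simp only [ringEquiv_smul_irr_apply, hf, hσ _ h1.pow_eq_one]⟩

omit hp in
theorem liesOverLe_smul_gal {N T : Subgroup G} {h : N ≤ T} {ψ : IrrCharacter T}
    {θ : IrrCharacter N} (hψ : LiesOverLe h ψ.1 θ.1) (σ : ℂ ≃+* ℂ) :
    LiesOverLe h (σ • ψ).1 (σ • θ).1 := fun e =>
  hψ ((map_eq_zero (σ : ℂ →+* ℂ)).1 ((ip_gal_gal σ _ θ.2.isCharacter.isGen).symm.trans e))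

theorem pField_base {t a : ℕ} {S : Subgroup (ℂ ≃+* ℂ)} (hS0 : S.index ≠ 0)
    (hS : S.index ≤ (p - 1) * p ^ t) (ha : Nat.card G = p ^ a) {χ : IrrCharacter G}
    (hk : ker χ.1 = ⊥) (hχ : ∀ σ ∈ S, σ • χ = χ) {A : Subgroup G} [A.Normal] [IsCyclic A]
    (hA : centralizer (A : Set G) = A) :
    (p - 1) * a + 1 ≤ charDegree χ.1 + (p - 1) * (t + 1) * charDegree χ.1 := by
  obtain ⟨θ, hθ⟩ := exists_irr_liesUnder A χ
  have hd := irr_degree_eq_one_of_isMulCommutative θ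
  have hθk : ker θ.1 = ⊥ := by
    have := GT.normal_of_le_isCyclic (map_subtype_le (ker θ.1))
    rw [← (ker θ.1).map_eq_bot_iff_of_injective A.subtype_injective, eq_bot_iff, ← hk,
      ← liesOver_one_iff]
    refine hθ.trans_le (map_subtype_le _) χ.2.isCharacter isCharacter_one
      (liesOverLe_of_resLe_eq (θ := irrOne _) (funext ?_))
    rintro ⟨_, x, hx, rfl⟩
    exact ((irr_mem_ker_iff θ).1 hx).trans (by rw [irr_apply_one, hd]; simp)
  have hT : stabilizer G θ = A := le_antisymm (fun x hx => hA.le fun n hn => by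
    have h1 := θ.2.isCharacter.map_mul_of_degree_one hd
    have : MulAut.conjNormal x (⟨n, hn⟩ : A) * ⟨n, hn⟩⁻¹ ∈ ker θ.1 := fun y => by
      rw [mul_assoc, h1, conjSmul_eq_iff.1 hx, ← h1, mul_inv_cancel_left]
    rw [hθk, mem_bot, mul_inv_eq_one] at this
    exact (mul_inv_eq_iff_eq_mul.1 (congrArg Subtype.val this :)).symm) (le_inertia θ)
  have h1 : A.index ≤ charDegree χ.1 := hT ▸ Nat.le_of_dvd (irr_degree_pos χ) hθ.index_inertia_dvd
  have h2 : (stabilizer (ℂ ≃+* ℂ) θ).relIndex S ≤ A.index := by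
    rw [← congrArg index hT, ← card_conjOrbit, ← Set.ncard_coe_finset]
    refine (index_stabilizer S θ).trans_le (Set.ncard_le_ncard ?_)
    rintro _ ⟨σ, rfl⟩
    refine mem_conjOrbit.2 (hθ.mem_orbit fun e => hθ ?_)
    rw [← hχ σ σ.2] at e
    exact (map_eq_zero (σ.1 : ℂ →+* ℂ)).1 ((ip_gal_gal _ _ θ.2.isCharacter.isGen).symm.trans e)
  have h3 : (stabilizer (ℂ ≃+* ℂ) θ).index ≤ A.index * ((p - 1) * p ^ t) := by
    have : (stabilizer (ℂ ≃+* ℂ) θ).index ≠ 0 := by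
      rw [index_stabilizer]; exact ((Set.ncard_pos).2 (nonempty_orbit θ)).ne'
    refine (Nat.le_of_dvd (Nat.pos_of_ne_zero (index_inf_ne_zero this hS0))
      (index_dvd_of_le inf_le_left)).trans ?_
    rw [← relIndex_mul_index (inf_le_right : _ ⊓ S ≤ S), inf_relIndex_right]
    exact Nat.mul_le_mul h2 hS
  replace h3 := (totient_le_index_stabilizer θ hθk).trans h3
  have h4 := A.card_mul_index
  obtain ⟨s, -, hs⟩ := (Nat.dvd_prime_pow hp.1).1 (ha ▸ card_subgroup_dvd_card A)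
  obtain ⟨m, -, hm⟩ := (Nat.dvd_prime_pow hp.1).1 (ha ▸ index_dvd_card A)
  rw [hs, hm, ha, ← pow_add, Nat.pow_right_inj hp.1.one_lt] at h4
  obtain ⟨q, hq⟩ : ∃ q, p = q + 1 := ⟨_, (Nat.succ_pred_eq_of_pos hp.1.pos).symm⟩
  have hq0 : 0 < q := by have := hp.1.one_lt; omega
  have h5 : s ≤ m + t + 1 := by
    rcases s with _ | s
    · omega
    rw [hs, hm, Nat.totient_prime_pow_succ hp.1, mul_left_comm, ← pow_add, mul_comm] at h3
    have := Nat.le_of_mul_le_mul_left h3 (by omega)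
    have := (Nat.pow_le_pow_iff_right hp.1.one_lt).1 this
    omega
  have h6 : 1 + m * q ≤ charDegree χ.1 := by
    refine le_trans ?_ (hm ▸ h1)
    have := one_add_mul_le_pow (R := ℤ) (a := q) (by omega) m
    rw [hq, add_comm q]
    exact_mod_cast this
  obtain ⟨r, hr⟩ := Nat.exists_eq_add_of_le h6
  rw [hr, hq, Nat.add_sub_cancel, ← h4]
  have : q * m ≤ q * (t + 1) * (m * q) := by
    rw [mul_assoc]
    exact Nat.mul_le_mul_left _ ((Nat.le_mul_of_pos_right _ hq0).trans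
      (Nat.le_mul_of_pos_left _ t.succ_pos))
  nlinarith [Nat.mul_le_mul_left q h5, Nat.zero_le (q * (t + 1) * r)]

theorem pField_aux {t : ℕ} {S : Subgroup (ℂ ≃+* ℂ)} (hS0 : S.index ≠ 0)
    (hS : S.index ≤ (p - 1) * p ^ t) (hS1 : ∀ σ ∈ S, ∀ ζ : ℂ, ζ ^ p = 1 → σ ζ = ζ ^ 1)
    (G : Type u) [Group G] [Finite G] : ∀ a, Nat.card G = p ^ a → ∀ χ : IrrCharacter G,
      ker χ.1 = ⊥ → (∀ σ ∈ S, σ • χ = χ) →
      (p - 1) * a + 1 ≤ charDegree χ.1 + (p - 1) * (t + 1) * charDegree χ.1 := by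
  refine GT.induction_on_card (P := fun G _ _ => ∀ a, Nat.card G = p ^ a → ∀ χ : IrrCharacter G,
    ker χ.1 = ⊥ → (∀ σ ∈ S, σ • χ = χ) →
    (p - 1) * a + 1 ≤ charDegree χ.1 + (p - 1) * (t + 1) * charDegree χ.1) (fun G _ _ ih => ?_) G
  intro a ha χ hk hχ
  have hG : IsPGroup p G := .of_card ha
  have := hG.isNilpotent
  obtain ⟨A, hA, hAc, -, hA1⟩ := GT.exists_self_centralizing_normal (A := (⊥ : Subgroup G))
  by_cases hc : IsCyclic A
  · exact pField_base hS0 hS ha hk hχ hA1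
  set E := GT.powKer A p
  have := GT.isMulCommutative_of_le (GT.powKer_le A p)
  obtain ⟨θ, hθ⟩ := exists_irr_liesUnder E χ
  have hd := irr_degree_eq_one_of_isMulCommutative θ
  have hT : stabilizer G θ ≠ ⊤ := fun hT => by
    have h1 := clifford_invariant (forall_smul_iff_inertia_eq_top.2 hT) hθ
    have := irr_isCyclic_center_of_faithful χ hk
    refine hc (GT.isCyclic_of_card_powKer_le (hG.to_subgroup A) (Nat.le_of_dvd hp.1.pos
      ((card_dvd_of_le fun x hx => ?_).trans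
        (GT.card_powKer_dvd_of_isCyclic (Subgroup.center G) p))))
    refine ⟨irr_center_eq_of_faithful χ hk ▸ ?_, hx.2⟩
    rw [irr_mem_center_iff, ← χ.2.isCharacter.norm_apply_one, show χ.1 x = _ from
      congrFun h1 ⟨x, hx⟩, show χ.1 1 = _ from congrFun h1 1]
    simp only [Pi.smul_apply, norm_smul, θ.2.isCharacter.norm_eq_one_of_degree_one hd]
  obtain ⟨M, hM, hTM, hMp⟩ := GT.exists_index_eq_ge hG hT
  obtain ⟨ψ, ⟨h1, h2⟩, huniq⟩ := cliffordCorr_existsUnique hTM ((le_inertia θ).trans hTM) hθ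
  have hψ : ∀ σ ∈ S, σ • ψ = ψ := fun σ hσ => huniq _ ⟨by
    have e : σ • θ = θ := Subtype.ext (funext fun x =>
      (θ.2.isCharacter.isGen.ringHom_apply_eq (σ := σ) (hS1 σ hσ) (Subtype.ext x.2.2)).trans
        (by rw [pow_one]))
    simpa only [e] using liesOverLe_smul_gal h1 σ, funext fun g => by
      rw [← hχ σ hσ, ringEquiv_smul_irr_apply, ← h2]; exact (map_ind (σ : ℂ →+* ℂ) _ _ g).symm⟩
  have hψχ : LiesOver M χ.1 ψ.1 := h2 ▸ liesOver_ind_self ψ
  have hdeg : charDegree χ.1 = p * charDegree ψ.1 := by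
    rw [← h2, charDegree_ind ψ.2.isCharacter, hMp]
  have key : ∀ φ ∈ conjOrbit G ψ, ∃ b, (ker φ.1).index = p ^ b ∧
      (p - 1) * b + 1 ≤ charDegree ψ.1 + (p - 1) * (t + 1) * charDegree ψ.1 := fun φ hφ => by
    rw [mem_conjOrbit] at hφ
    obtain ⟨b, hb⟩ := (hG.to_subgroup M).index (ker φ.1)
    obtain ⟨η, hη⟩ := (exists_inflate_eq_iff (ker φ.1) φ).2 le_rfl
    refine ⟨b, hb, ?_⟩
    rw [← charDegree_of_mem_orbit hφ, ← hη, charDegree_inflate]
    refine ih _ ((Nat.card_le_card_of_surjective _ (QuotientGroup.mk'_surjective _)).trans_lt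
      (GT.card_lt_of_ne_top fun h => hp.1.ne_one (by rw [← hMp, h, index_top]))) b hb η ?_
      fun σ hσ => inflate_injective _ (Subtype.ext (funext fun x => ?_))
    · rw [← map_comap_eq_self_of_surjective (QuotientGroup.mk'_surjective _) (ker η.1),
        ← ker_inflate, hη, GT.map_mk'_eq_bot_iff]
    · obtain ⟨g, rfl⟩ := hφ
      change σ ((inflate _ η).1 x) = _
      rw [hη, conjSmul_apply, ← ringEquiv_smul_irr_apply, hψ σ hσ]
  choose! b hb hb' using key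
  have h3 : ⨅ φ : conjOrbit G ψ, ker φ.1.1 = ⊥ := by
    rw [eq_bot_iff, ← bot_subgroupOf M, ← hk, ← χ.2.isCharacter.ker_res]
    exact fun x hx => (χ.2.isCharacter.res M).mem_ker_iff_forall_irr.2 fun φ hφ =>
      mem_iInf.1 hx ⟨φ, mem_conjOrbit.2 (hψχ.mem_orbit hφ)⟩
  have h4 := index_iInf_le fun φ : conjOrbit G ψ => ker φ.1.1
  rw [h3, index_bot, Finset.prod_congr rfl fun φ _ => hb φ.1 φ.2, Finset.prod_pow_eq_pow_sum,
    Finset.sum_coe_sort] at h4
  have h5 : a ≤ ∑ φ ∈ conjOrbit G ψ, b φ + 1 := by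
    rw [← Nat.pow_le_pow_iff_right hp.1.one_lt, ← ha, ← M.card_mul_index, hMp, pow_succ]
    exact Nat.mul_le_mul_right _ h4
  have h6 : (conjOrbit G ψ).card ≤ p := by
    rw [card_conjOrbit, ← hMp]
    exact Nat.le_of_dvd (GT.index_pos M) (index_dvd_of_le (le_inertia ψ))
  have h7 := Finset.sum_le_card_nsmul _ (fun φ => (p - 1) * b φ)
    (charDegree ψ.1 + (p - 1) * (t + 1) * charDegree ψ.1 - 1)
    fun φ hφ => Nat.le_sub_one_of_lt (hb' φ hφ)
  rw [← Finset.mul_sum, smul_eq_mul] at h7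
  replace h7 := h7.trans (Nat.mul_le_mul_right _ h6)
  have h8 := Nat.mul_le_mul_left (p - 1) h5
  have h9 : p * 1 ≤ p * (charDegree ψ.1 + (p - 1) * (t + 1) * charDegree ψ.1) :=
    Nat.mul_le_mul_left _ ((irr_degree_pos ψ).trans_le le_self_add)
  rw [Nat.mul_sub, mul_add] at h7
  rw [hdeg, mul_left_comm]
  rw [mul_add] at h8 h9
  have := hp.1.pos
  omega

end LG
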